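import Mathlib
import Cfsg.Agent.Solv.Supersolvable2
import Cfsg.Agent.FGS.SolvRad
import Cfsg.Agent.PLocal.AmbSyl

/-! Groups of the same order type. -/

set_option autoImplicit false

namespace Cfsg.Agent.OrdT

open Subgroup

universe u v

/-- `G` and `H` have the same number of elements of each order. -/
def OT (G H : Type*) [Group G] [Group H] : Prop :=
  ∀ m : ℕ, Nat.card {g : G // orderOf g = m} = Nat.card {h : H // orderOf h = m}

variable {G : Type u} {H : Type v} [Group G] [Finite G] [Group H] [Finite H]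

omit [Finite G] [Finite H] in
theorem OT.symm (h : OT G H) : OT H G := fun m => (h m).symm

omit [Finite G] [Finite H] in
theorem OT.trans {K : Type*} [Group K] (h : OT G H) (h' : OT H K) : OT G K :=
  fun m => (h m).trans (h' m)

omit [Finite G] [Finite H] in
theorem ot_of_equiv (e : G ≃* H) : OT G H := fun _ =>
  Nat.card_congr (e.toEquiv.subtypeEquiv fun g => by
    rw [← e.orderOf_eq g]
    rfl)

theorem OT.exists_equiv (h : OT G H) : ∃ e : G ≃ H, ∀ g, orderOf (e g) = orderOf g :=
  ⟨Equiv.ofFiberEquiv (f := orderOf) (g := orderOf) fun m => (Finite.card_eq.1 (h m)).some,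
    Equiv.ofFiberEquiv_map _⟩

theorem OT.card_eq (h : OT G H) : Nat.card G = Nat.card H :=
  Nat.card_congr h.exists_equiv.choose

theorem OT.count (h : OT G H) (P : ℕ → Prop) :
    Nat.card {g : G // P (orderOf g)} = Nat.card {g : H // P (orderOf g)} := by
  obtain ⟨e, he⟩ := h.exists_equiv
  exact Nat.card_congr (e.subtypeEquiv fun g => by rw [he])

theorem OT.exists_orderOf (h : OT G H) (g : G) : ∃ x : H, orderOf x = orderOf g :=
  let ⟨e, he⟩ := h.exists_equiv
  ⟨e g, he g⟩

omit [Finite G] in
theorem orderOf_mk {N : Subgroup G} [N.Normal] (hN : (Nat.card N).Coprime N.index) (x : G) :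
    orderOf (x : G ⧸ N) = Nat.gcd (orderOf x) N.index := by
  refine Nat.dvd_antisymm (Nat.dvd_gcd (orderOf_map_dvd (QuotientGroup.mk' N) x)
    (orderOf_dvd_natCard _)) ?_
  refine (hN.symm.coprime_dvd_left (Nat.gcd_dvd_right _ _)).dvd_of_dvd_mul_right
    ((Nat.gcd_dvd_left _ _).trans (orderOf_dvd_of_pow_eq_one ?_))
  rw [pow_mul]
  refine orderOf_dvd_iff_pow_eq_one.1 (N.orderOf_dvd_natCard ?_)
  rw [← QuotientGroup.eq_one_iff, QuotientGroup.mk_pow, pow_orderOf_eq_one]

omit [Finite G] in
theorem card_preimage (N : Subgroup G) [N.Normal] (P : G ⧸ N → Prop) :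
    Nat.card {x : G // P x} = Nat.card N * Nat.card {x : G ⧸ N // P x} :=
  QuotientGroup.card_preimage_mk N {x | P x}

theorem OT.index_eq (h : OT G H) {N : Subgroup G} {M : Subgroup H}
    (e : Nat.card M = Nat.card N) : M.index = N.index := by
  have := h.card_eq
  rw [← card_mul_index N, ← card_mul_index M, e] at this
  exact (Nat.eq_of_mul_eq_mul_left Nat.card_pos this).symm

theorem OT.quotient (h : OT G H) {N : Subgroup G} [N.Normal] {M : Subgroup H} [M.Normal]
    (hN : (Nat.card N).Coprime N.index) (e : Nat.card M = Nat.card N) : OT (G ⧸ N) (H ⧸ M) := by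
  intro m
  have hi := h.index_eq e
  have := h.count fun k => Nat.gcd k N.index = m
  simp only [← orderOf_mk hN] at this
  simp only [← hi, ← orderOf_mk (show (Nat.card M).Coprime M.index by rwa [e, hi])] at this
  rw [card_preimage N fun x => orderOf x = m, card_preimage M fun x => orderOf x = m, e] at this
  exact Nat.eq_of_mul_eq_mul_left Nat.card_pos this

theorem OT.sylow_normal (h : OT G H) {p : ℕ} [Fact p.Prime] (P : Sylow p G)
    (hP : (P : Subgroup G).Normal) (Q : Sylow p H) : (Q : Subgroup H).Normal := by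
  have h1 : Nat.card {h : H // ∃ k, h ^ p ^ k = 1} = Nat.card Q := by
    rw [Q.card_eq_multiplicity, ← h.card_eq, ← P.card_eq_multiplicity]
    simp_rw [← orderOf_dvd_iff_pow_eq_one]
    rw [← h.count fun n => ∃ k, n ∣ p ^ k]
    refine Nat.card_congr (Equiv.subtypeEquivRight fun g => ?_)
    simp_rw [orderOf_dvd_iff_pow_eq_one]
    exact ⟨fun h => zpowers_le.1 ((PLocal.Amb.isSyl_top P).le_of_normalizes
      (PLocal.Amb.isPGroup_zpowers h) le_top le_normalizer_of_normal),
      PLocal.Amb.isPGroup_iff.1 P.isPGroup' g⟩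
  have h2 : ((Q : Subgroup H) : Set H) = {h : H | ∃ k, h ^ p ^ k = 1} :=
    Set.eq_of_subset_of_ncard_le (PLocal.Amb.isPGroup_iff.1 Q.isPGroup') (le_of_eq h1)
  refine ⟨fun x hx g => ?_⟩
  obtain ⟨k, hk⟩ := PLocal.Amb.isPGroup_iff.1 Q.isPGroup' x hx
  exact h2.ge ⟨k, by rw [conj_pow, hk]; simp⟩

theorem exists_normal_aux (n : ℕ) : ∀ (G : Type u) (H : Type v) [Group G] [Finite G] [Group H]
    [Finite H], OT G H → ∀ N : Subgroup G, N.Normal → Nat.card N = n →
      (Nat.card N).Coprime N.index → IsSupersolvable N →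
      ∃ M : Subgroup H, M.Normal ∧ Nat.card M = Nat.card N ∧ Group.IsSolvable M := by
  induction n using Nat.strong_induction_on with
  | _ n ih =>
  intro G H _ _ _ _ h N hN hn hc hs
  by_cases h1 : Nat.card N = 1
  · exact ⟨⊥, inferInstance, by rw [h1, card_bot], inferInstance⟩
  obtain ⟨p, hp, hd, hmax⟩ := Solv.exists_max_prime_dvd Nat.card_pos.ne' h1
  have := Fact.mk hp
  obtain ⟨P₀⟩ : Nonempty (Sylow p N) := inferInstance
  have := Solv.sylow_normal_of_isSupersolvable N hs p hmax P₀
  have := P₀.characteristic_of_normal this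
  have hP : ((P₀ : Subgroup N).map N.subtype).Normal := inferInstance
  have hi : ¬ p ∣ ((P₀ : Subgroup N).map N.subtype).index := by
    rw [index_map_subtype, hp.dvd_mul]
    rintro (e | e)
    · exact P₀.not_dvd_index e
    · exact hp.ne_one (Nat.eq_one_of_dvd_coprimes hc hd e)
  let P : Sylow p G := (P₀.isPGroup'.map N.subtype).toSylow hi
  obtain ⟨Q⟩ : Nonempty (Sylow p H) := inferInstance
  have hQ := h.sylow_normal P hP Q
  have hle : (P : Subgroup G) ≤ N := map_subtype_le _
  have hPn : (P : Subgroup G).Normal := hP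
  have e : Nat.card Q = Nat.card P := by
    rw [Q.card_eq_multiplicity, P.card_eq_multiplicity, h.card_eq]
  have hcard : Nat.card (N.map (QuotientGroup.mk' (P : Subgroup G))) * Nat.card P =
      Nat.card N := by
    rw [← Grp.card_comap_mk', comap_map_eq_self (by rwa [QuotientGroup.ker_mk'])]
  have hP1 : 1 < Nat.card P := by
    rw [P.card_eq_multiplicity]
    exact Nat.one_lt_pow (hp.factorization_pos_of_dvd Nat.card_pos.ne'
      (hd.trans (card_subgroup_dvd_card N))).ne' hp.one_lt
  obtain ⟨M, hM, e1, hs'⟩ := ih _ (by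
      rw [← hn, ← hcard]
      exact lt_mul_of_one_lt_right Nat.card_pos hP1) _ _
    (h.quotient P.card_coprime_index e) (N.map (QuotientGroup.mk' (P : Subgroup G)))
    (hN.map _ (QuotientGroup.mk'_surjective _)) rfl (by
      rw [Solv.index_map_mk'_of_le _ hle]
      exact hc.coprime_dvd_left ⟨_, hcard.symm⟩) (Solv.isSupersolvable_map hs _)
  refine ⟨M.comap (QuotientGroup.mk' _), inferInstance, by rw [Grp.card_comap_mk', e1, e, hcard],
    FGS.isSolvable_comap _ hs' ?_⟩
  rw [QuotientGroup.ker_mk']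
  have := Q.isPGroup'.isNilpotent
  infer_instance

/-- A supersolvable normal Hall subgroup has a solvable normal counterpart. -/
theorem OT.exists_normal (h : OT G H) (N : Subgroup G) [hN : N.Normal]
    (hc : (Nat.card N).Coprime N.index) (hs : IsSupersolvable N) :
    ∃ M : Subgroup H, M.Normal ∧ Nat.card M = Nat.card N ∧ Group.IsSolvable M :=
  exists_normal_aux _ G H h N hN rfl hc hs

end Cfsg.Agent.OrdT
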