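import Mathlib
import Cfsg.Agent.OrdT.Base
import Cfsg.Agent.FGS.FrobCompl
import Cfsg.Agent.Solv.Hall
import Cfsg.Agent.KSG.PSL2
import Cfsg.Agent.S3359

/-! Frobenius groups and order types. -/

set_option autoImplicit false

namespace Cfsg.Agent.OrdT

open Subgroup MatrixGroups Cfsg.Agent.Solv

theorem exists_orderOf_fifteen {G : Type*} [Group G] [Finite G] (h : Nat.card G = 15) :
    ∃ x : G, orderOf x = 15 := by
  have := Fact.mk Nat.prime_three
  have := Fact.mk Nat.prime_five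
  obtain ⟨P⟩ : Nonempty (Sylow 3 G) := inferInstance
  obtain ⟨Q⟩ : Nonempty (Sylow 5 G) := inferInstance
  have cP : Nat.card P = 3 := by
    rw [P.card_eq_multiplicity, h, show 15 = 3 * 5 from rfl,
      Nat.factorization_mul (by decide) (by decide)]
    simp [Nat.prime_three.factorization, Nat.prime_five.factorization]
  have cQ : Nat.card Q = 5 := by
    rw [Q.card_eq_multiplicity, h, show 15 = 3 * 5 from rfl,
      Nat.factorization_mul (by decide) (by decide)]
    simp [Nat.prime_three.factorization, Nat.prime_five.factorization]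
  have iP := card_mul_index (P : Subgroup G)
  have iQ := card_mul_index (Q : Subgroup G)
  rw [cP, h] at iP
  rw [cQ, h] at iQ
  have hQ := sylow_normal_of_index_le Q (by omega)
  have hP : (P : Subgroup G).Normal := by
    have h1 := P.card_dvd_index
    have h2 := card_sylow_modEq_one 3 G
    rw [show (P : Subgroup G).index = 5 by omega, Nat.dvd_prime Nat.prime_five] at h1
    have := (Nat.card_eq_one_iff_unique.1 (h1.resolve_right fun e => by
      rw [e] at h2
      exact absurd h2 (by decide))).1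
    exact P.normal_of_subsingleton
  obtain ⟨a, ha⟩ := exists_prime_orderOf_dvd_card' (G := P) 3 cP.symm.dvd
  obtain ⟨b, hb⟩ := exists_prime_orderOf_dvd_card' (G := Q) 5 cQ.symm.dvd
  rw [← orderOf_coe] at ha hb
  have := commute_of_normal_of_disjoint _ _ hP hQ (disjoint_of_coprime_natCard (by
    rw [cP, cQ]; decide)) a b a.2 b.2
  exact ⟨a * b, by rw [this.orderOf_mul_eq_mul_orderOf_of_coprime (by rw [ha, hb]; decide), ha, hb]⟩

theorem sl25_ne_fifteen (g : SL(2, ZMod 5)) : orderOf g ≠ 15 := by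
  intro h
  have := Fact.mk Nat.prime_five
  have h1 : orderOf g ∣ orderOf (KSG.M2.pr g) * 2 := by
    refine orderOf_dvd_of_pow_eq_one ?_
    rw [pow_mul]
    rcases KSG.M2.pr_eq_one_iff'.1 (show KSG.M2.pr (g ^ orderOf (KSG.M2.pr g)) = 1 by
      rw [map_pow, pow_orderOf_eq_one]) with e | e <;> simp [e]
  have h2 : 15 ∣ orderOf (KSG.M2.pr g) :=
    (by decide : Nat.Coprime 15 2).dvd_of_dvd_mul_right (h ▸ h1)
  rcases KSG.M2.orderOf_pr_cases 5 g with ⟨-, e⟩ | ⟨-, -, e⟩ | ⟨-, e⟩ <;>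
    have := h2.trans e <;> simp at this

theorem solvable_of_occurs {C D : Type*} [Group C] [Finite C] [Group D] [Finite D] (h : OT C D)
    (hD : FGS.FrobCompl.Occurs D) (hs : Group.IsSolvable C) : Group.IsSolvable D := by
  by_contra hns
  obtain ⟨D₀, hn, hi, S, M, rfl, hd, hc, ⟨e⟩, -, h30⟩ := S3359.result hns hD
  have hSM : S ≤ normalizer (M : Set D) := fun s hs => mem_normalizer_fintype fun x hx => by
    rwa [hc s hs x hx, mul_inv_cancel_right]
  have := Fact.mk Nat.prime_five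
  have cS : Nat.card S = 120 := by
    have := KSG.M2.index_cent_mul (1 : SL(2, ZMod 5))
    rw [mul_comm, card_mul_index] at this
    rw [Nat.card_congr e.toEquiv, this]
    simp
  have mem : ∀ x ∈ S ⊔ M, ∃ s ∈ S, ∃ m ∈ M, s * m = x := fun x hx => by
    rwa [← SetLike.mem_coe, coe_mul_of_left_le_normalizer_right S M hSM] at hx
  have cD : Nat.card ↥(S ⊔ M) = 120 * Nat.card M := by
    rw [← cS, ← Nat.card_prod]
    refine (Nat.card_congr (Equiv.ofBijective
      (fun x : S × M => (⟨x.1 * x.2, mul_mem_sup x.1.2 x.2.2⟩ : ↥(S ⊔ M))) ⟨?_, ?_⟩)).symm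
    · rintro ⟨a, b⟩ ⟨c, d⟩ e
      have e1 : (c : D)⁻¹ * a = d * (b : D)⁻¹ := by
        rw [inv_mul_eq_iff_eq_mul, ← mul_assoc, eq_mul_inv_iff_mul_eq]
        exact congrArg Subtype.val e
      have : (c : D)⁻¹ * a ∈ S ⊓ M :=
        ⟨S.mul_mem (S.inv_mem c.2) a.2, e1 ▸ M.mul_mem d.2 (M.inv_mem b.2)⟩
      rw [hd, mem_bot] at this
      refine Prod.ext (Subtype.ext (inv_mul_eq_one.1 this).symm) (Subtype.ext ?_)
      rw [this, eq_comm, mul_inv_eq_one] at e1
      exact e1.symm
    · rintro ⟨x, hx⟩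
      obtain ⟨s, hs, m, hm, rfl⟩ := mem x hx
      exact ⟨(⟨s, hs⟩, ⟨m, hm⟩), rfl⟩
  obtain ⟨H, hH⟩ := exists_hall C hs 15 (8 * Nat.card M * (S ⊔ M).index) (by
    rw [h.card_eq, ← card_mul_index (S ⊔ M), cD]; ring) (by
    refine Nat.Coprime.mul_right (Nat.Coprime.mul_right (by decide)
      (h30.symm.coprime_dvd_left (by decide))) ?_
    rcases hi with e | e <;> rw [e] <;> decide)
  obtain ⟨x, hx⟩ := exists_orderOf_fifteen hH
  obtain ⟨y, hy⟩ := h.exists_orderOf x
  rw [orderOf_coe, hx] at hy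
  obtain ⟨s, hs, m, hm, e1⟩ := mem (y ^ 2) (by
    have := (S ⊔ M).pow_index_mem y
    rcases hi with e | e <;> rw [e] at this
    · exact pow_mem (by rwa [pow_one] at this) 2
    · exact this)
  have h2 : orderOf (y ^ 2) = 15 := by rw [orderOf_pow' y two_ne_zero, hy]; rfl
  have h3 : s ^ 15 * m ^ 15 = 1 := by
    rw [← Commute.mul_pow (hc s hs m hm), e1, ← h2, pow_orderOf_eq_one]
  have h4 : m ^ 15 ∈ S ⊓ M :=
    ⟨eq_inv_of_mul_eq_one_right h3 ▸ S.inv_mem (S.pow_mem hs 15), M.pow_mem hm 15⟩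
  rw [hd, mem_bot] at h4
  obtain rfl : m = 1 := orderOf_eq_one_iff.1 (Nat.eq_one_of_dvd_coprimes
    (h30.coprime_dvd_right (by decide)) (M.orderOf_dvd_natCard hm) (orderOf_dvd_of_pow_eq_one h4))
  rw [mul_one] at e1
  exact sl25_ne_fifteen (e ⟨s, hs⟩) (by rw [e.orderOf_eq, ← orderOf_coe, ← h2, ← e1])

variable {G : Type*} [Group G] [Finite G]

theorem occurs {C : Subgroup G} (hC : IsFrobeniusComplement C) : FGS.FrobCompl.Occurs C := by
  obtain ⟨φ, h, _, -⟩ := FGS.FrobCompl.exists_isFpf hC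
  have := (nontrivial_iff_ne_bot C).2 hC.1
  exact FGS.FrobCompl.occurs_of_isFpf φ h

theorem orderOf_dvd_or {K C : Subgroup G} [K.Normal] (hC : IsFrobeniusComplement C)
    (hc : IsComplement' K C) (x : G) : orderOf x ∣ Nat.card K ∨ orderOf x ∣ Nat.card C := by
  by_cases hx : x ∈ K
  · exact Or.inl (K.orderOf_dvd_natCard hx)
  · obtain ⟨k, -, hk⟩ := Frob.exists_conj_mem_of_not_mem hC hc hx
    have := C.orderOf_dvd_natCard hk
    rw [show orderOf (k * x * k⁻¹) = orderOf x from (MulAut.conj k).orderOf_eq x] at this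
    exact Or.inr this

omit [Finite G] in
theorem solvable_iff {K C : Subgroup G} [K.Normal] (hc : IsComplement' K C)
    (hK : Group.IsSolvable K) : Group.IsSolvable G ↔ Group.IsSolvable C := by
  refine ⟨fun _ => inferInstance, fun _ => ?_⟩
  have : Group.IsSolvable (G ⧸ K) := Group.isSolvable_of_isSolvable_injective
    (f := hc.symm.QuotientMulEquiv.toMonoidHom) (MulEquiv.injective _)
  exact (Group.isSolvable_iff_subgroup_quotient K).2 ⟨hK, this⟩

omit [Finite G] in
theorem fpf_of {K C : Subgroup G} (hc : (Nat.card K).Coprime (Nat.card C))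
    (h : ∀ x : G, orderOf x ∣ Nat.card K ∨ orderOf x ∣ Nat.card C) :
    ∀ c ∈ C, c ≠ 1 → K ⊓ centralizer {c} = ⊥ := by
  refine Frob.fpf_iff.2 fun a ha k hk e => ?_
  have da := C.orderOf_dvd_natCard ha
  have dk := K.orderOf_dvd_natCard hk
  have := Commute.orderOf_mul_eq_mul_orderOf_of_coprime e
    ((hc.symm.coprime_dvd_left da).coprime_dvd_right dk)
  rcases h (a * k) with h | h <;> rw [this] at h
  · exact Or.inl (orderOf_eq_one_iff.1 (Nat.eq_one_of_dvd_coprimes hc
      ((dvd_mul_right _ _).trans h) da))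
  · exact Or.inr (orderOf_eq_one_iff.1 (Nat.eq_one_of_dvd_coprimes hc dk
      ((dvd_mul_left _ _).trans h)))

end Cfsg.Agent.OrdT
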